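import Mathlib

/-!
An abstract lemma behind the uniqueness of the strongly regular graph (77,16,0,4): a tight frame
of 60 vectors with inner products in `{4, 1, -2}`, its classes of equal vectors, and the
20-element subsets with all inner products non-negative.
-/

set_option autoImplicit false

namespace Cfsg.Agent.Graphs

variable {S : Type*} [Fintype S]

/-- Gram entries of a zero-sum tight frame of 60 vectors of norm 4. -/
structure IsFrame60 (r : S → S → ℤ) : Prop where
  card : Fintype.card S = 60
  symm : ∀ b c, r b c = r c b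
  diag : ∀ b, r b b = 4
  mod : ∀ b c, ∃ k : ℤ, r b c = 3 * k + 1
  frame : ∀ b c, ∑ x, r b x * r c x = 48 * r b c
  zero : ∀ b, ∑ x, r b x = 0

/-- Inner products of a norm-4 vector with the vectors of the frame. -/
structure IsVec60 (r : S → S → ℤ) (g : S → ℤ) : Prop where
  mod : ∀ z, ∃ k : ℤ, g z = 3 * k + 1
  frame : ∀ z, ∑ x, g x * r z x = 48 * g z
  sq : ∑ x, g x * g x = 192
  zero : ∑ x, g x = 0

variable {r : S → S → ℤ}

theorem IsFrame60.row (h : IsFrame60 r) (b : S) : IsVec60 r (r b) where
  mod := h.mod b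
  frame z := h.frame b z
  sq := by rw [h.frame, h.diag]; norm_num
  zero := h.zero b

theorem IsVec60.bound (h : IsFrame60 r) {g : S → ℤ} (hg : IsVec60 r g) (z : S) :
    (g z = 4 ∨ g z = 1 ∨ g z = -2) ∧ (g z = 4 → ∀ x, r z x = g x) := by
  have h1 : ∑ x, (g x - r z x) ^ 2 = 384 - 96 * g z := by
    have e : ∀ x, (g x - r z x) ^ 2 = g x * g x - 2 * (g x * r z x) + r z x * r z x := fun x => by
      ring
    rw [Finset.sum_congr rfl fun x _ => e x, Finset.sum_add_distrib, Finset.sum_sub_distrib,
      ← Finset.mul_sum, hg.sq, hg.frame, h.frame, h.diag]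
    ring
  have h2 : ∑ x, (g x + r z x) ^ 2 = 384 + 96 * g z := by
    have e : ∀ x, (g x + r z x) ^ 2 = g x * g x + 2 * (g x * r z x) + r z x * r z x := fun x => by
      ring
    rw [Finset.sum_congr rfl fun x _ => e x, Finset.sum_add_distrib, Finset.sum_add_distrib,
      ← Finset.mul_sum, hg.sq, hg.frame, h.frame, h.diag]
    ring
  have p1 := Finset.sum_nonneg (s := Finset.univ) fun x _ => sq_nonneg (g x - r z x)
  have p2 := Finset.sum_nonneg (s := Finset.univ) fun x _ => sq_nonneg (g x + r z x)
  obtain ⟨k, hk⟩ := hg.mod z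
  refine ⟨by omega, fun h4 x => ?_⟩
  rw [h4] at h1
  norm_num at h1
  have := (Finset.sum_eq_zero_iff_of_nonneg fun x _ => sq_nonneg _).mp h1 x (Finset.mem_univ x)
  have := pow_eq_zero_iff two_ne_zero |>.mp this
  omega

theorem IsVec60.exists_row (h : IsFrame60 r) {g : S → ℤ} (hg : IsVec60 r g) :
    ∃ z, ∀ x, r z x = g x := by
  by_contra hne
  push Not at hne
  have hz : ∀ x, g x * g x + g x - 2 = 0 := by
    intro x
    obtain ⟨hv, h4⟩ := hg.bound h x
    rcases hv with e | e | e
    · obtain ⟨y, hy⟩ := hne x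
      exact absurd (h4 e y) hy
    · rw [e]; norm_num
    · rw [e]; norm_num
  have hs : ∑ x, (g x * g x + g x - 2) = 0 := Finset.sum_eq_zero fun x _ => hz x
  rw [Finset.sum_sub_distrib, Finset.sum_add_distrib, hg.sq, hg.zero, Finset.sum_const,
    Finset.card_univ, h.card] at hs
  norm_num at hs

namespace IsFrame60

variable (h : IsFrame60 r)
include h

theorem val (b c : S) : r b c = 4 ∨ r b c = 1 ∨ r b c = -2 := ((h.row b).bound h c).1

theorem row_eq {b c : S} (e : r b c = 4) (x : S) : r c x = r b x := ((h.row b).bound h c).2 e x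

theorem card_four (b : S) : ((Finset.univ : Finset S).filter fun x => r b x = 4).card = 4 := by
  have hs : ∑ x, (r b x * r b x + r b x - 2) =
      18 * (((Finset.univ : Finset S).filter fun x => r b x = 4).card : ℤ) := by
    rw [Finset.natCast_card_filter, Finset.mul_sum]
    refine Finset.sum_congr rfl fun x _ => ?_
    rcases h.val b x with e | e | e <;> rw [e] <;> norm_num
  rw [Finset.sum_sub_distrib, Finset.sum_add_distrib, h.frame, h.diag, h.zero, Finset.sum_const,
    Finset.card_univ, h.card] at hs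
  norm_num at hs
  omega

theorem card_one (b : S) : ((Finset.univ : Finset S).filter fun x => r b x = 1).card = 32 := by
  have hs : ∑ x, (8 + 2 * r b x - r b x * r b x) =
      9 * (((Finset.univ : Finset S).filter fun x => r b x = 1).card : ℤ) := by
    rw [Finset.natCast_card_filter, Finset.mul_sum]
    refine Finset.sum_congr rfl fun x _ => ?_
    rcases h.val b x with e | e | e <;> rw [e] <;> norm_num
  rw [Finset.sum_sub_distrib, Finset.sum_add_distrib, ← Finset.mul_sum, h.frame, h.diag, h.zero,
    Finset.sum_const, Finset.card_univ, h.card] at hs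
  norm_num at hs
  omega

/-- Two vectors at inner product -2 are completed to a zero-sum triple. -/
theorem exists_third {b c : S} (hbc : r b c = -2) : ∃ w, ∀ x, r w x = -(r b x + r c x) := by
  have hfr : ∀ z, ∑ x, -(r b x + r c x) * r z x = 48 * -(r b z + r c z) := by
    intro z
    simp only [neg_mul, add_mul, Finset.sum_neg_distrib, Finset.sum_add_distrib, h.frame]
    ring
  apply IsVec60.exists_row h
  refine ⟨fun z => ?_, hfr, ?_, ?_⟩
  · obtain ⟨k, hk⟩ := h.mod b z
    obtain ⟨l, hl⟩ := h.mod c z
    exact ⟨-k - l - 1, by omega⟩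
  · have hcb : r c b = -2 := by rw [h.symm, hbc]
    calc ∑ x, -(r b x + r c x) * -(r b x + r c x)
        = -(∑ x, -(r b x + r c x) * r b x) - ∑ x, -(r b x + r c x) * r c x := by
          rw [← Finset.sum_neg_distrib, ← Finset.sum_sub_distrib]
          exact Finset.sum_congr rfl fun x _ => by ring
      _ = 192 := by rw [hfr, hfr, h.diag, h.diag, hbc, hcb]; norm_num
  · simp [Finset.sum_add_distrib, h.zero]

/-- The vectors at inner product 1 with two given ones at inner product 1 are 16 in number. -/
theorem card_both_one {b y : S} (hby : r b y = 1) :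
    ((Finset.univ : Finset S).filter fun x => r b x = 1 ∧ r y x = 1).card = 16 ∧
    ((Finset.univ : Finset S).filter fun x => r b x = -2 ∧ r y x = -2).card = 12 := by
  have hyb : r y b = 1 := by rw [h.symm, hby]
  have hnot : ∀ x, r b x = 4 → r y x = 1 := fun x e => by
    rw [h.symm y x, h.row_eq e y, hby]
  have hnot' : ∀ x, r y x = 4 → r b x = 1 := fun x e => by
    rw [h.symm b x, h.row_eq e b, hyb]
  have hA : ∑ x, ((r b x + r y x) * (r b x + r y x) + 5 * (r b x + r y x) + 4) =
      54 * (((Finset.univ : Finset S).filter fun x => r b x = 4).card : ℤ) +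
      54 * (((Finset.univ : Finset S).filter fun x => r y x = 4).card : ℤ) +
      18 * (((Finset.univ : Finset S).filter fun x => r b x = 1 ∧ r y x = 1).card : ℤ) := by
    simp only [Finset.natCast_card_filter, Finset.mul_sum, ← Finset.sum_add_distrib]
    refine Finset.sum_congr rfl fun x _ => ?_
    rcases h.val b x with e | e | e <;> rcases h.val y x with e' | e' | e' <;>
      first
        | (exfalso; have := hnot x e; omega)
        | (exfalso; have := hnot' x e'; omega)
        | (rw [e, e']; norm_num)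
  have hD : ∑ x, ((r b x + r y x) * (r b x + r y x) - (r b x + r y x) - 2) =
      18 * (((Finset.univ : Finset S).filter fun x => r b x = 4).card : ℤ) +
      18 * (((Finset.univ : Finset S).filter fun x => r y x = 4).card : ℤ) +
      18 * (((Finset.univ : Finset S).filter fun x => r b x = -2 ∧ r y x = -2).card : ℤ) := by
    simp only [Finset.natCast_card_filter, Finset.mul_sum, ← Finset.sum_add_distrib]
    refine Finset.sum_congr rfl fun x _ => ?_
    rcases h.val b x with e | e | e <;> rcases h.val y x with e' | e' | e' <;>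
      first
        | (exfalso; have := hnot x e; omega)
        | (exfalso; have := hnot' x e'; omega)
        | (rw [e, e']; norm_num)
  have hsq : ∑ x, (r b x + r y x) * (r b x + r y x) = 480 := by
    simp only [add_mul, mul_add, Finset.sum_add_distrib, h.frame, h.diag, hby, hyb]
    norm_num
  rw [h.card_four, h.card_four] at hA hD
  rw [Finset.sum_add_distrib, Finset.sum_add_distrib, hsq, ← Finset.mul_sum, Finset.sum_add_distrib,
    h.zero, h.zero, Finset.sum_const, Finset.card_univ, h.card] at hA
  rw [Finset.sum_sub_distrib, Finset.sum_sub_distrib, hsq, Finset.sum_add_distrib, h.zero, h.zero,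
    Finset.sum_const, Finset.card_univ, h.card] at hD
  norm_num at hA hD
  omega

/-- Auxiliary: the special common neighbour is at inner product -2 from the other ones. -/
theorem no_bad {b y t z p q s : S} (hby : r b y = 1) (ht : ∀ x, r t x = -(r b x + r y x + r p x + r q x + r s x))
    (hpq : r p q = 1) (hps : r p s = 1) (hqs : r q s = 1)
    (hp : r b p = -2 ∧ r y p = -2) (hq : r b q = -2 ∧ r y q = -2) (hs : r b s = -2 ∧ r y s = -2)
    (hz : r b z = 1 ∧ r y z = 1) (hzp : r p z = -2) (hzq : r q z = -2) (hzs : r s z = 1) : False := by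
  classical
  have sy := h.symm
  have dg := h.diag
  obtain ⟨w, hw⟩ := h.exists_third (b := z) (c := p) (by rw [sy, hzp])
  obtain ⟨w', hw'⟩ := h.exists_third (b := z) (c := q) (by rw [sy, hzq])
  have hws : r w s = -2 := by rw [hw, sy z s, hzs, hps]; norm_num
  obtain ⟨w'', hw''⟩ := h.exists_third (b := w) (c := s) hws
  have hb' := ht b
  have hy' := ht y
  have hp' := ht p
  have hq' := ht q
  have hs' := ht s
  have hz' := ht z
  simp only [dg, sy y b, sy p b, sy q b, sy s b, sy p y, sy q y, sy s y, sy q p, sy s p, sy s q,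
    hby, hpq, hps, hqs, hp.1, hp.2, hq.1, hq.2, hs.1, hs.2, hz.1, hz.2, hzp, hzq, hzs] at hb' hy' hp' hq' hs' hz'
  norm_num at hb' hy' hp' hq' hs' hz'
  have hw1 : r w b = 1 ∧ r w y = 1 ∧ r w p = -2 ∧ r w q = 1 ∧ r w z = -2 ∧ r w t = 1 := by
    simp only [hw, dg, sy z b, sy z y, sy z p, sy z q, sy p b, sy p y, hp.1, hp.2,
      hz.1, hz.2, hzp, hzq, hpq, sy z t, sy p t, hp', hz']
    norm_num
  have hw2 : r w' b = 1 ∧ r w' y = 1 ∧ r w' p = 1 ∧ r w' q = -2 ∧ r w' z = -2 ∧ r w' t = 1 ∧
      r w' w = 1 ∧ r w' s = -2 := by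
    have e1 : r w' w = 1 := by
      rw [hw', sy z w, sy q w, hw1.2.2.2.1, hw1.2.2.2.2.1]; norm_num
    refine ⟨?_, ?_, ?_, ?_, ?_, ?_, e1, ?_⟩ <;>
    · simp only [hw', dg, sy z b, sy z y, sy z p, sy z q, sy z s, sy q b, sy q y, sy q p, hq.1, hq.2,
        hz.1, hz.2, hzp, hzq, hzs, hpq, hqs, sy z t, sy q t, hq', hz']
      norm_num
  have hw3 : r w'' b = 1 ∧ r w'' y = 1 ∧ r w'' z = 1 ∧ r w'' t = 1 ∧ r w'' w = -2 ∧ r w'' w' = 1 := by
    simp only [hw'', dg, sy w w', hw1.1, hw1.2.1, hw1.2.2.2.2.1, hw1.2.2.2.2.2, hw2.2.2.2.2.2.2.1,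
      sy s b, sy s y, hs.1, hs.2, hzs, sy s t, hs', sy s w, hws, sy s w', hw2.2.2.2.2.2.2.2]
    norm_num
  let f : Fin 5 → S := ![t, z, w, w', w'']
  have hfC : ∀ i, r (f i) b = 1 ∧ r (f i) y = 1 := by
    intro i
    fin_cases i
    exacts [⟨hb', hy'⟩, ⟨by show r z b = 1; rw [sy, hz.1], by show r z y = 1; rw [sy, hz.2]⟩,
      ⟨hw1.1, hw1.2.1⟩, ⟨hw2.1, hw2.2.1⟩, ⟨hw3.1, hw3.2.1⟩]
  have hff : ∀ i j, i ≠ j → r (f i) (f j) ≠ 4 := by
    intro i j hij
    fin_cases i <;> fin_cases j <;>
      first
        | exact absurd rfl hij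
        | (simp [f, sy z t, sy t w, sy t w', sy t w'', sy z w, sy z w', sy z w'', sy w w', sy w w'',
            sy w' w'', hz', hw1.2.2.2.2.1, hw1.2.2.2.2.2, hw2.2.2.2.2.1, hw2.2.2.2.2.2.1,
            hw2.2.2.2.2.2.2.1, hw3.2.2.1, hw3.2.2.2.1, hw3.2.2.2.2.1, hw3.2.2.2.2.2])
  have hsub : ((Finset.univ : Finset (Fin 5)).biUnion fun i =>
      (Finset.univ : Finset S).filter fun x => r (f i) x = 4) ⊆
      (Finset.univ : Finset S).filter fun x => r b x = 1 ∧ r y x = 1 := by
    intro x hx
    simp only [Finset.mem_biUnion, Finset.mem_univ, Finset.mem_filter, true_and] at hx ⊢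
    obtain ⟨i, hi⟩ := hx
    rw [sy b x, sy y x, h.row_eq hi b, h.row_eq hi y]
    exact hfC i
  have hcard := Finset.card_le_card hsub
  rw [(h.card_both_one hby).1, Finset.card_biUnion] at hcard
  · simp only [h.card_four, Finset.sum_const, Finset.card_univ, Fintype.card_fin, smul_eq_mul] at hcard
    omega
  · intro i _ j _ hij
    rw [Function.onFun, Finset.disjoint_left]
    intro x hi hj
    simp only [Finset.mem_filter, Finset.mem_univ, true_and] at hi hj
    exact hff i j hij (by rw [sy (f i), ← h.row_eq hj, h.row_eq hi, dg])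

/-- Through two vectors at inner product 1 passes exactly one 20-element set without -2. -/
theorem existsUnique_coclique [DecidableEq S] {b y : S} (hby : r b y = 1) :
    ∃! T : Finset S, (T.card = 20 ∧ ∀ x ∈ T, ∀ z ∈ T, r x z ≠ -2) ∧ b ∈ T ∧ y ∈ T := by
  have sy := h.symm
  have dg := h.diag
  let D := (Finset.univ : Finset S).filter fun x => r b x = -2 ∧ r y x = -2
  have hD12 : D.card = 12 := (h.card_both_one hby).2
  have hpick : ∀ E : Finset S, E.card < 12 → ∃ p ∈ D, p ∉ E := by
    intro E hE
    by_contra hne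
    push Not at hne
    have := Finset.card_le_card (show D ⊆ E from hne)
    omega
  have hD : ∀ p ∈ D, r b p = -2 ∧ r y p = -2 := fun p hp => (Finset.mem_filter.mp hp).2
  obtain ⟨p, hp, -⟩ := hpick ∅ (by simp)
  obtain ⟨q, hq, hqp⟩ := hpick ((Finset.univ : Finset S).filter fun x => r p x = 4) (by rw [h.card_four]; norm_num)
  obtain ⟨s, hs, hsp⟩ := hpick (((Finset.univ : Finset S).filter fun x => r p x = 4) ∪
    (Finset.univ : Finset S).filter fun x => r q x = 4)
    (lt_of_le_of_lt (Finset.card_union_le _ _) (by rw [h.card_four, h.card_four]; norm_num))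
  simp only [Finset.mem_union, Finset.mem_filter, Finset.mem_univ, true_and, not_or] at hqp hsp
  have hpair : ∀ u v, u ∈ D → v ∈ D → r u v ≠ 4 → r u v = 1 := by
    intro u v hu hv hne
    rcases h.val u v with e | e | e
    · exact absurd e hne
    · exact e
    · exfalso
      obtain ⟨w, hw⟩ := h.exists_third e
      have h1 : r w b = 4 := by rw [hw, sy u b, sy v b, (hD u hu).1, (hD v hv).1]; norm_num
      have h2 : r w y = 4 := by rw [hw, sy u y, sy v y, (hD u hu).2, (hD v hv).2]; norm_num
      rw [← h.row_eq h1] at h2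
      omega
  have hpq := hpair p q hp hq hqp
  have hps := hpair p s hp hs hsp.1
  have hqs := hpair q s hq hs hsp.2
  obtain ⟨⟨hp1, hp2⟩, ⟨hq1, hq2⟩, ⟨hs1, hs2⟩⟩ :=
    And.intro (hD p hp) (And.intro (hD q hq) (hD s hs))
  have hg : IsVec60 r fun x => -(r b x + r y x + r p x + r q x + r s x) := by
    have hfr : ∀ z, ∑ x, -(r b x + r y x + r p x + r q x + r s x) * r z x =
        48 * -(r b z + r y z + r p z + r q z + r s z) := by
      intro z
      simp only [neg_mul, add_mul, Finset.sum_neg_distrib, Finset.sum_add_distrib, h.frame]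
      ring
    refine ⟨fun z => ?_, hfr, ?_, ?_⟩
    · obtain ⟨a1, e1⟩ := h.mod b z
      obtain ⟨a2, e2⟩ := h.mod y z
      obtain ⟨a3, e3⟩ := h.mod p z
      obtain ⟨a4, e4⟩ := h.mod q z
      obtain ⟨a5, e5⟩ := h.mod s z
      exact ⟨-a1 - a2 - a3 - a4 - a5 - 2, by omega⟩
    · calc ∑ x, -(r b x + r y x + r p x + r q x + r s x) * -(r b x + r y x + r p x + r q x + r s x)
          = -((∑ x, -(r b x + r y x + r p x + r q x + r s x) * r b x) +
              (∑ x, -(r b x + r y x + r p x + r q x + r s x) * r y x) +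
              (∑ x, -(r b x + r y x + r p x + r q x + r s x) * r p x) +
              (∑ x, -(r b x + r y x + r p x + r q x + r s x) * r q x) +
              ∑ x, -(r b x + r y x + r p x + r q x + r s x) * r s x) := by
            rw [← Finset.sum_add_distrib, ← Finset.sum_add_distrib, ← Finset.sum_add_distrib,
              ← Finset.sum_add_distrib, ← Finset.sum_neg_distrib]
            exact Finset.sum_congr rfl fun x _ => by ring
        _ = 192 := by
            simp only [hfr, dg, sy y b, sy p b, sy q b, sy s b, sy p y, sy q y, sy s y, sy q p, sy s p,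
              sy s q, hby, hpq, hps, hqs, hp1, hp2, hq1, hq2, hs1, hs2]
            norm_num
    · simp [Finset.sum_add_distrib, h.zero]
  obtain ⟨t, ht⟩ := hg.exists_row h
  have htb : r t b = 1 := by
    simp only [ht, dg, sy y b, sy p b, sy q b, sy s b, hby, hp1, hq1, hs1]; norm_num
  have hty : r t y = 1 := by
    simp only [ht, dg, sy p y, sy q y, sy s y, hby, hp2, hq2, hs2]; norm_num
  have hzt : ∀ z, r b z = 1 → r y z = 1 → r t z ≠ 4 → r t z = -2 := by
    intro z hz1 hz2 hne
    rcases h.val t z with e | e | e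
    · exact absurd e hne
    · exfalso
      have h1 := ht z
      rw [e, hz1, hz2] at h1
      rcases h.val p z with ep | ep | ep <;> rcases h.val q z with eq | eq | eq <;>
        rcases h.val s z with es | es | es <;>
        (try omega) <;>
        first
          | exact h.no_bad hby ht hpq hps hqs ⟨hp1, hp2⟩ ⟨hq1, hq2⟩ ⟨hs1, hs2⟩ ⟨hz1, hz2⟩ ep eq es
          | exact h.no_bad hby (fun x => by rw [ht]; ring) hps hpq (by rw [sy, hqs]) ⟨hp1, hp2⟩
              ⟨hs1, hs2⟩ ⟨hq1, hq2⟩ ⟨hz1, hz2⟩ ep es eq
          | exact h.no_bad hby (fun x => by rw [ht]; ring) hqs (by rw [sy, hpq]) (by rw [sy, hps])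
              ⟨hq1, hq2⟩ ⟨hs1, hs2⟩ ⟨hp1, hp2⟩ ⟨hz1, hz2⟩ eq es ep
    · exact e
  let Y := (Finset.univ : Finset S).filter fun x => r b x ≠ -2 ∧ r y x ≠ -2 ∧ r t x ≠ 4
  have hclass : ∀ x, r b x = 4 ∨ r y x = 4 ∨ (r b x = 1 ∧ r y x = 1) ∨ r b x = -2 ∨ r y x = -2 := by
    intro x
    rcases h.val b x with e | e | e <;> rcases h.val y x with e' | e' | e' <;> omega
  have hYmem : ∀ x, x ∈ Y ↔ r b x ≠ -2 ∧ r y x ≠ -2 ∧ r t x ≠ 4 := fun x => by simp [Y]
  have hb4 : ∀ x, r b x = 4 → r y x = 1 ∧ r t x = 1 := fun x e => by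
    rw [sy y x, sy t x, h.row_eq e y, h.row_eq e t, hby, sy b t, htb]; exact ⟨rfl, rfl⟩
  have hy4 : ∀ x, r y x = 4 → r b x = 1 ∧ r t x = 1 := fun x e => by
    rw [sy b x, sy t x, h.row_eq e b, h.row_eq e t, sy y b, hby, sy y t, hty]; exact ⟨rfl, rfl⟩
  have ht4 : ∀ x, r t x = 4 → r b x = 1 ∧ r y x = 1 := fun x e => by
    rw [sy b x, sy y x, h.row_eq e b, h.row_eq e y, htb, hty]; exact ⟨rfl, rfl⟩
  have hYcard : Y.card = 20 := by
    have hsum : (Y.card : ℤ) + (((Finset.univ : Finset S).filter fun x => r t x = 4).card : ℤ) =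
        (((Finset.univ : Finset S).filter fun x => r b x = 4).card : ℤ) +
        (((Finset.univ : Finset S).filter fun x => r y x = 4).card : ℤ) +
        (((Finset.univ : Finset S).filter fun x => r b x = 1 ∧ r y x = 1).card : ℤ) := by
      simp only [Y, Finset.natCast_card_filter, ← Finset.sum_add_distrib]
      refine Finset.sum_congr rfl fun x _ => ?_
      rcases h.val b x with e | e | e <;> rcases h.val y x with e' | e' | e' <;>
        rcases h.val t x with e'' | e'' | e'' <;>
        first
          | (exfalso; have := hb4 x e; omega)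
          | (exfalso; have := hy4 x e'; omega)
          | (exfalso; have := ht4 x e''; omega)
          | simp [e, e', e'']
    rw [h.card_four, h.card_four, h.card_four, (h.card_both_one hby).1] at hsum
    omega
  have hYpair : ∀ x ∈ Y, ∀ z ∈ Y, r x z ≠ -2 := by
    intro x hx z hz hxz
    rw [hYmem] at hx hz
    obtain ⟨w, hw⟩ := h.exists_third hxz
    have hxb : r b x = 4 ∨ r b x = 1 := by rcases h.val b x with e | e | e <;> omega
    rcases hclass x with e | e | e | e | e
    · rw [h.row_eq e] at hxz; omega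
    · rw [h.row_eq e] at hxz; omega
    · rcases hclass z with f | f | f | f | f
      · rw [sy, h.row_eq f] at hxz; omega
      · rw [sy, h.row_eq f] at hxz; omega
      · have h1 : r w t = 4 := by
          rw [hw, sy x t, sy z t, hzt x e.1 e.2 hx.2.2, hzt z f.1 f.2 hz.2.2]; norm_num
        have h2 : r w b = -2 := by rw [hw, sy x b, sy z b, e.1, f.1]; norm_num
        rw [← h.row_eq h1, htb] at h2
        omega
      · exact hz.1 f
      · exact hz.2.1 f
    · exact hx.1 e
    · exact hx.2.1 e
  refine ⟨Y, ⟨⟨hYcard, hYpair⟩, ?_, ?_⟩, ?_⟩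
  · rw [hYmem, dg, sy y b, hby, htb]; norm_num
  · rw [hYmem, hby, dg, hty]; norm_num
  · rintro T ⟨⟨hT, hTp⟩, hbT, hyT⟩
    refine Finset.eq_of_subset_of_card_le (fun x hx => ?_) (by rw [hT, hYcard])
    rw [hYmem]
    refine ⟨hTp b hbT x hx, hTp y hyT x hx, fun htx => ?_⟩
    -- otherwise the whole set lies in three classes
    have hsub : T ⊆ ((Finset.univ : Finset S).filter fun z => r b z = 4) ∪
        ((Finset.univ : Finset S).filter fun z => r y z = 4) ∪
        (Finset.univ : Finset S).filter fun z => r t z = 4 := by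
      intro z hz
      simp only [Finset.mem_union, Finset.mem_filter, Finset.mem_univ, true_and]
      rcases hclass z with e | e | e | e | e
      · exact Or.inl (Or.inl e)
      · exact Or.inl (Or.inr e)
      · refine Or.inr ?_
        by_contra hne
        exact hTp x hx z hz (by rw [h.row_eq htx, hzt z e.1 e.2 hne])
      · exact absurd e (hTp b hbT z hz)
      · exact absurd e (hTp y hyT z hz)
    have h1 := Finset.card_le_card hsub
    have h2 := Finset.card_union_le (((Finset.univ : Finset S).filter fun z => r b z = 4) ∪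
      ((Finset.univ : Finset S).filter fun z => r y z = 4))
      ((Finset.univ : Finset S).filter fun z => r t z = 4)
    have h3 := Finset.card_union_le ((Finset.univ : Finset S).filter fun z => r b z = 4)
      ((Finset.univ : Finset S).filter fun z => r y z = 4)
    rw [h.card_four, h.card_four] at h3
    rw [h.card_four] at h2
    omega

/-- Every vector lies in exactly two such sets. -/
theorem card_cocliques [DecidableEq S] (b : S) :
    (((Finset.univ : Finset S).powersetCard 20).filter fun T =>
      b ∈ T ∧ ∀ x ∈ T, ∀ z ∈ T, r x z ≠ -2).card = 2 := by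
  let F := ((Finset.univ : Finset S).powersetCard 20).filter fun T =>
    b ∈ T ∧ ∀ x ∈ T, ∀ z ∈ T, r x z ≠ -2
  show F.card = 2
  have hF : ∀ T, T ∈ F ↔ T.card = 20 ∧ b ∈ T ∧ ∀ x ∈ T, ∀ z ∈ T, r x z ≠ -2 := fun T => by simp [F]
  have h1 := Finset.sum_card_bipartiteAbove_eq_sum_card_bipartiteBelow (s := F)
    (t := (Finset.univ : Finset S).filter fun x => r b x = 1) (fun T x => x ∈ T)
  simp only [Finset.bipartiteAbove, Finset.bipartiteBelow] at h1
  have hr : ∀ y ∈ (Finset.univ : Finset S).filter (fun x => r b x = 1),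
      (F.filter fun T => y ∈ T).card = 1 := by
    intro y hy
    obtain ⟨Y, ⟨⟨hY, hYp⟩, hbY, hyY⟩, huniq⟩ := h.existsUnique_coclique (Finset.mem_filter.mp hy).2
    rw [Finset.card_eq_one]
    refine ⟨Y, Finset.eq_singleton_iff_unique_mem.mpr ⟨?_, fun T hT => ?_⟩⟩
    · rw [Finset.mem_filter, hF]; exact ⟨⟨hY, hbY, hYp⟩, hyY⟩
    · rw [Finset.mem_filter, hF] at hT
      exact huniq T ⟨⟨hT.1.1, hT.1.2.2⟩, hT.1.2.1, hT.2⟩
  have hl : ∀ T ∈ F, (((Finset.univ : Finset S).filter fun x => r b x = 1).filter fun x => x ∈ T).card = 16 := by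
    intro T hT
    rw [hF] at hT
    have hsplit := Finset.card_filter_add_card_filter_not (s := T) (fun x => r b x = 1)
    have hrest : T.filter (fun x => ¬ r b x = 1) ⊆ (Finset.univ : Finset S).filter fun x => r b x = 4 := by
      intro x hx
      rw [Finset.mem_filter] at hx
      simp only [Finset.mem_filter, Finset.mem_univ, true_and]
      have := hT.2.2 b hT.2.1 x hx.1
      rcases h.val b x with e | e | e <;> omega
    obtain ⟨y, hy⟩ : ∃ y, y ∈ T.filter fun x => r b x = 1 := by
      by_contra hne
      push Not at hne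
      have := Finset.card_le_card hrest
      rw [h.card_four] at this
      rw [Finset.eq_empty_iff_forall_notMem.mpr hne, Finset.card_empty, hT.1] at hsplit
      omega
    rw [Finset.mem_filter] at hy
    obtain ⟨Y, -, huniq⟩ := h.existsUnique_coclique hy.2
    have hall : (Finset.univ : Finset S).filter (fun x => r b x = 4) ⊆ T.filter fun x => ¬ r b x = 1 := by
      intro x hx
      simp only [Finset.mem_filter, Finset.mem_univ, true_and] at hx
      refine Finset.mem_filter.mpr ⟨?_, by omega⟩
      by_contra hxT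
      -- exchanging `b` for `x` gives a second set
      let T' := insert x (T.erase b)
      have hxy : r x y = 1 := by rw [h.row_eq hx, hy.2]
      have hbT' : b ∉ T' := by
        simp only [T', Finset.mem_insert, Finset.mem_erase, ne_eq, not_true_eq_false, false_and, or_false]
        rintro rfl
        exact hxT hT.2.1
      obtain ⟨U, -, hU⟩ := h.existsUnique_coclique (show r y x = 1 by rw [h.symm, hxy])
      have hrow : ∀ z, r x z = r b z := h.row_eq hx
      have hp : ∀ z ∈ insert x T, ∀ z' ∈ insert x T, r z z' ≠ -2 := by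
        intro z hz z' hz'
        rw [Finset.mem_insert] at hz hz'
        rcases hz with rfl | hz <;> rcases hz' with rfl | hz'
        · rw [h.diag]; norm_num
        · rw [hrow]; exact hT.2.2 b hT.2.1 z' hz'
        · rw [h.symm, hrow]; exact hT.2.2 b hT.2.1 z hz
        · exact hT.2.2 z hz z' hz'
      have hyne : y ≠ b := by rintro rfl; rw [h.diag] at hy; omega
      obtain ⟨z, hzT, hzb, hzy⟩ : ∃ z ∈ T, z ≠ b ∧ z ≠ y := by
        by_contra hne
        push Not at hne
        have : T ⊆ {b, y} := fun z hz => by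
          by_cases e : z = b
          · simp [e]
          · simp [hne z hz e]
        have := (Finset.card_le_card this).trans Finset.card_le_two
        omega
      have hT1 : T' = U := hU _ ⟨⟨by
          rw [Finset.card_insert_of_notMem (by simp [hxT]), Finset.card_erase_of_mem hT.2.1, hT.1],
        fun z hz z' hz' => hp z (Finset.insert_subset_insert x (Finset.erase_subset b T) hz) z'
          (Finset.insert_subset_insert x (Finset.erase_subset b T) hz')⟩,
        Finset.mem_insert_of_mem (Finset.mem_erase.mpr ⟨hyne, hy.1⟩), Finset.mem_insert_self _ _⟩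
      have hT2 : insert x (T.erase z) = U := hU _ ⟨⟨by
          rw [Finset.card_insert_of_notMem (by simp [hxT]), Finset.card_erase_of_mem hzT, hT.1],
        fun w hw w' hw' => hp w (Finset.insert_subset_insert x (Finset.erase_subset z T) hw) w'
          (Finset.insert_subset_insert x (Finset.erase_subset z T) hw')⟩,
        Finset.mem_insert_of_mem (Finset.mem_erase.mpr ⟨hzy.symm, hy.1⟩), Finset.mem_insert_self _ _⟩
      apply hbT'
      rw [hT1, ← hT2]
      exact Finset.mem_insert_of_mem (Finset.mem_erase.mpr ⟨hzb.symm, hT.2.1⟩)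
    have h4 : (T.filter fun x => ¬ r b x = 1).card = 4 := by
      rw [← Finset.Subset.antisymm hall hrest, h.card_four]
    rw [h4, hT.1] at hsplit
    have : ((Finset.univ : Finset S).filter fun x => r b x = 1).filter (fun x => x ∈ T) =
        T.filter fun x => r b x = 1 := by ext x; simp [and_comm]
    rw [this]
    omega
  rw [Finset.sum_congr rfl hl, Finset.sum_congr rfl hr, Finset.sum_const, Finset.sum_const,
    h.card_one, smul_eq_mul, smul_eq_mul] at h1
  omega

end IsFrame60

end Cfsg.Agent.Graphs
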