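import Cfsg.Agent.Graphs.Frame60
import Cfsg.Agent.Graphs.M22Graphs
import Cfsg.Agent.Design.Large

/-!
Strongly regular graphs with parameters (77, 16, 0, 4) are block graphs of S(3,6,22): the points
are the 21-element cocliques.
-/

set_option autoImplicit false

namespace Cfsg.Agent.Graphs

open Cfsg.Agent.SteinerCount Cfsg.Agent.Design

section

variable {α β : Type*} [DecidableEq α] [DecidableEq β] {B : Set (Finset α)} {B' : Set (Finset β)}

/-- An isomorphism of block graphs induced by an isomorphism of designs. -/
def blockGraphIso (e : α ≃ β) (h : ∀ b : Finset α, b.map e.toEmbedding ∈ B' ↔ b ∈ B) :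
    Cfsg.blockGraph B ≃g Cfsg.blockGraph B' where
  toFun b := ⟨(b : Finset α).map e.toEmbedding, (h _).mpr b.2⟩
  invFun c := ⟨(c : Finset β).map e.symm.toEmbedding, by
    rw [← h, Finset.map_map]
    simp⟩
  left_inv b := Subtype.ext (by simp [Finset.map_map])
  right_inv c := Subtype.ext (by simp [Finset.map_map])
  map_rel_iff' := by
    intro b c
    simp [Cfsg.blockGraph, Finset.disjoint_map, Subtype.ext_iff]

/-- Two S(3,6,22) have isomorphic block graphs. -/
theorem exists_blockGraphIso [Fintype α] [Fintype β] (hB : Cfsg.IsSteinerSystem 3 6 B)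
    (hv : Fintype.card α = 22) (hB' : Cfsg.IsSteinerSystem 3 6 B') (hv' : Fintype.card β = 22) :
    Nonempty (Cfsg.blockGraph B ≃g Cfsg.blockGraph B') := by
  obtain ⟨e, he⟩ := exists_iso22 hB hv
  obtain ⟨e', he'⟩ := exists_iso22 hB' hv'
  refine ⟨blockGraphIso (e.symm.trans e') ?_⟩
  intro b
  have h1 : b.map (e.symm.trans e').toEmbedding =
      (b.map e.symm.toEmbedding).map e'.toEmbedding := by
    rw [Finset.map_map]; rfl
  rw [h1, he', ← he, map_pull]

end

variable {V : Type*} [Fintype V] [DecidableEq V] {G : SimpleGraph V} [DecidableRel G.Adj]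

/-- The adjacency indicator. -/
def adjInd (G : SimpleGraph V) [DecidableRel G.Adj] (x y : V) : ℤ := if G.Adj x y then 1 else 0

/-- A multiple of the projection to the eigenspace for the eigenvalue -6. -/
def proj77 (G : SimpleGraph V) [DecidableRel G.Adj] (x y : V) : ℤ :=
  22 * (if x = y then 1 else 0) + 2 - 11 * adjInd G x y

theorem adjInd_comm (x y : V) : adjInd G x y = adjInd G y x := by
  unfold adjInd
  by_cases h : G.Adj x y <;> simp [h, G.adj_comm y x]

theorem proj77_comm (x y : V) : proj77 G x y = proj77 G y x := by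
  unfold proj77
  rw [adjInd_comm x y]
  simp only [eq_comm (a := x)]

theorem common77 (hG : G.IsSRGWith 77 16 0 4) (x y : V) :
    ((Finset.univ : Finset V).filter fun z => G.Adj x z ∧ G.Adj y z).card =
      if x = y then 16 else if G.Adj x y then 0 else 4 := by
  split_ifs with h h'
  · subst h
    rw [← hG.regular x, ← SimpleGraph.card_neighborFinset_eq_degree]
    congr 1
    ext z; simp
  · rw [← hG.of_adj x y h', Fintype.card_subtype]
    congr 1
  · rw [← hG.of_not_adj h h', Fintype.card_subtype]
    congr 1

theorem sum_adjInd (hG : G.IsSRGWith 77 16 0 4) (u : V) : ∑ z, adjInd G u z = 16 := by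
  unfold adjInd
  rw [Finset.sum_boole, ← SimpleGraph.neighborFinset_eq_filter,
    SimpleGraph.card_neighborFinset_eq_degree, hG.regular u]
  rfl

theorem sum_adjInd_mul (hG : G.IsSRGWith 77 16 0 4) (x y : V) :
    ∑ z, adjInd G x z * adjInd G y z =
      ((if x = y then 16 else if G.Adj x y then 0 else 4 : ℕ) : ℤ) := by
  rw [← common77 hG x y, Finset.natCast_card_filter]
  refine Finset.sum_congr rfl fun z _ => ?_
  unfold adjInd
  rw [ite_and]
  by_cases h : G.Adj x z <;> simp [h]

theorem sum_proj77 (hG : G.IsSRGWith 77 16 0 4) (x : V) : ∑ z, proj77 G x z = 0 := by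
  unfold proj77
  rw [Finset.sum_sub_distrib, Finset.sum_add_distrib, ← Finset.mul_sum, ← Finset.mul_sum,
    sum_adjInd hG, Finset.sum_const, Finset.card_univ, hG.card, Finset.sum_ite_eq]
  simp

theorem proj77_sq (hG : G.IsSRGWith 77 16 0 4) (x y : V) :
    ∑ z, proj77 G x z * proj77 G z y = 88 * proj77 G x y := by
  have hexp : ∀ z, proj77 G x z * proj77 G z y =
      484 * ((if x = z then 1 else 0 : ℤ) * (if z = y then 1 else 0))
      + 44 * ((if x = z then 1 else 0 : ℤ) * 1)
      - 242 * ((if x = z then 1 else 0 : ℤ) * adjInd G y z)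
      + 44 * (1 * (if z = y then 1 else 0 : ℤ)) + 4
      - 22 * adjInd G y z
      - 242 * (adjInd G x z * (if z = y then 1 else 0 : ℤ))
      - 22 * adjInd G x z
      + 121 * (adjInd G x z * adjInd G y z) := by
    intro z
    unfold proj77
    rw [adjInd_comm z y]
    ring
  have hl : ∀ g : V → ℤ, ∑ z, (if x = z then 1 else 0 : ℤ) * g z = g x := fun g => by simp
  have hr : ∀ g : V → ℤ, ∑ z, g z * (if z = y then 1 else 0 : ℤ) = g y := fun g => by simp
  rw [Finset.sum_congr rfl fun z _ => hexp z]
  simp only [Finset.sum_add_distrib, Finset.sum_sub_distrib, ← Finset.mul_sum, sum_adjInd hG,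
    sum_adjInd_mul hG, hl, hr, Finset.sum_const, Finset.card_univ, hG.card]
  rw [adjInd_comm y x]
  unfold proj77 adjInd
  by_cases h : x = y
  · subst h; simp
  · by_cases h' : G.Adj x y <;> simp [h, h']

/-- Common neighbours of three vertices. -/
def triple (G : SimpleGraph V) [DecidableRel G.Adj] (v b x : V) : ℕ :=
  ((Finset.univ : Finset V).filter fun i => G.Adj v i ∧ G.Adj b i ∧ G.Adj x i).card

/-- The second subconstituent. -/
abbrev Second (G : SimpleGraph V) (v : V) : Type _ := {x : V // x ≠ v ∧ ¬ G.Adj v x}

/-- The residual inner products on the second subconstituent of `v`. -/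
def resid (G : SimpleGraph V) [DecidableRel G.Adj] (v : V) (b x : Second G v) : ℤ :=
  if b = x then 4 else if G.Adj b.1 x.1 then -2 else 4 - 3 * (triple G v b.1 x.1 : ℤ)

theorem not_adj_nbrs (hG : G.IsSRGWith 77 16 0 4) {v i j : V} (hi : G.Adj v i) (hj : G.Adj v j) :
    ¬ G.Adj i j := by
  intro h
  have h0 := common77 hG v i
  rw [if_neg hi.ne, if_pos hi, Finset.card_eq_zero] at h0
  have : j ∈ ((Finset.univ : Finset V).filter fun z => G.Adj v z ∧ G.Adj i z) := by simp [hj, h]
  rw [h0] at this
  simp at this

theorem isFrame60_resid (hG : G.IsSRGWith 77 16 0 4) (v : V) : IsFrame60 (resid G v) where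
  card := by
    rw [Fintype.card_subtype]
    have h1 : ((Finset.univ : Finset V).filter fun b => b ≠ v ∧ ¬ G.Adj v b) =
        Finset.univ \ (insert v (G.neighborFinset v)) := by ext b; simp
    rw [h1, Finset.card_sdiff_of_subset (Finset.subset_univ _), Finset.card_univ, hG.card,
      Finset.card_insert_of_notMem (by simp), SimpleGraph.card_neighborFinset_eq_degree, hG.regular v]
  symm b c := by
    unfold resid
    simp only [eq_comm (a := b), G.adj_comm b.1 c.1]
    have : triple G v b.1 c.1 = triple G v c.1 b.1 := by
      unfold triple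
      simp only [and_comm (a := G.Adj b.1 _)]
    rw [this]
  diag b := if_pos rfl
  mod b c := by
    unfold resid
    split_ifs
    · exact ⟨1, rfl⟩
    · exact ⟨-1, rfl⟩
    · exact ⟨1 - (triple G v b.1 c.1 : ℤ), by ring⟩
  frame b c := (frame_aux hG v b c).1
  zero b := (frame_aux hG v b b).2
where
  frame_aux (hG : G.IsSRGWith 77 16 0 4) (v : V) (b c : Second G v) :
      ∑ x, resid G v b x * resid G v c x = 48 * resid G v b c ∧ ∑ x, resid G v b x = 0 := by
    let N : Finset V := G.neighborFinset v
    have hN : N.card = 16 := by rw [SimpleGraph.card_neighborFinset_eq_degree, hG.regular v]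
    let W : Second G v → V → ℤ := fun b z =>
      (if z = b.1 then 18 else 0) - (if z ∈ N then 2 - 9 * adjInd G b.1 z else 0)
    let K : Second G v → V → ℤ := fun b x => ∑ z, W b z * proj77 G z x
    have hK : ∀ b x, K b x = 18 * proj77 G b.1 x -
        ∑ i ∈ N, (2 - 9 * adjInd G b.1 i) * proj77 G i x := by
      intro b x
      simp only [K, W, sub_mul, Finset.sum_sub_distrib, ite_mul, zero_mul, Finset.sum_ite_eq',
        Finset.mem_univ, if_true, Finset.sum_ite_mem, Finset.univ_inter]
    have hκ : ∀ b : Second G v, ∑ i ∈ N, (2 - 9 * adjInd G b.1 i) = -4 := by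
      intro b
      rw [Finset.sum_sub_distrib, ← Finset.mul_sum, Finset.sum_const, hN]
      have : ∑ i ∈ N, adjInd G b.1 i = 4 := by
        unfold adjInd
        rw [Finset.sum_boole]
        have h4 := common77 hG v b.1
        rw [if_neg (Ne.symm b.2.1), if_neg b.2.2] at h4
        have : (N.filter fun i => G.Adj b.1 i) =
            (Finset.univ : Finset V).filter fun z => G.Adj v z ∧ G.Adj b.1 z := by ext z; simp [N]
        rw [this, h4]
        rfl
      rw [this]
      norm_num
    have hKN : ∀ b x, x ∈ N → K b x = 0 := by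
      intro b x hx
      have hxv : G.Adj v x := by simpa [N] using hx
      have hterm : ∀ i ∈ N, (2 - 9 * adjInd G b.1 i) * proj77 G i x =
          2 * (2 - 9 * adjInd G b.1 i) + 22 * (if i = x then 2 - 9 * adjInd G b.1 i else 0) := by
        intro i hi
        have hiv : G.Adj v i := by simpa [N] using hi
        unfold proj77
        rw [show adjInd G i x = 0 from if_neg (not_adj_nbrs hG hiv hxv)]
        split_ifs <;> ring
      rw [hK, Finset.sum_congr rfl hterm, Finset.sum_add_distrib, ← Finset.mul_sum, ← Finset.mul_sum,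
        hκ, Finset.sum_ite_eq', if_pos hx]
      unfold proj77
      rw [if_neg (fun e : b.1 = x => b.2.2 (e ▸ hxv))]
      ring
    have hKout : ∀ b x, x ∉ N → K b x = 18 * proj77 G b.1 x + 8 +
        22 * ∑ i ∈ N, adjInd G x i - 99 * (triple G v b.1 x : ℤ) := by
      intro b x hx
      have hterm : ∀ i ∈ N, (2 - 9 * adjInd G b.1 i) * proj77 G i x =
          2 * (2 - 9 * adjInd G b.1 i) - 22 * adjInd G x i + 99 * (adjInd G b.1 i * adjInd G x i) := by
        intro i hi
        unfold proj77
        rw [if_neg (fun e : i = x => hx (e ▸ hi)), adjInd_comm i x]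
        ring
      have htri : ∑ i ∈ N, adjInd G b.1 i * adjInd G x i = (triple G v b.1 x : ℤ) := by
        rw [triple, Finset.natCast_card_filter, ← Finset.sum_filter, Finset.sum_filter]
        rw [show N = (Finset.univ : Finset V).filter fun i => G.Adj v i from by ext i; simp [N],
          Finset.sum_filter]
        refine Finset.sum_congr rfl fun i _ => ?_
        unfold adjInd
        by_cases h1 : G.Adj v i <;> by_cases h2 : G.Adj b.1 i <;> by_cases h3 : G.Adj x i <;>
          simp [h1, h2, h3]
      rw [hK, Finset.sum_congr rfl hterm, Finset.sum_add_distrib, Finset.sum_sub_distrib,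
        ← Finset.mul_sum, ← Finset.mul_sum, ← Finset.mul_sum, hκ, htri]
      ring
    have hKv : ∀ b, K b v = 0 := by
      intro b
      have hterm : ∀ i ∈ N, (2 - 9 * adjInd G b.1 i) * proj77 G i v =
          (-9) * (2 - 9 * adjInd G b.1 i) := by
        intro i hi
        have hiv : G.Adj v i := by simpa [N] using hi
        unfold proj77
        rw [if_neg hiv.ne.symm, show adjInd G i v = 1 from if_pos hiv.symm]
        ring
      rw [hK, Finset.sum_congr rfl hterm, ← Finset.mul_sum, hκ]
      unfold proj77
      rw [if_neg b.2.1, show adjInd G b.1 v = 0 from if_neg fun h => b.2.2 h.symm]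
      ring
    have hKS : ∀ b x : Second G v, K b x.1 = 33 * resid G v b x := by
      intro b x
      have hxN : x.1 ∉ N := by simp [N, x.2.2]
      have h4 : ∀ y : Second G v, ∑ i ∈ N, adjInd G y.1 i = 4 := fun y => by
        have := hκ y
        rw [Finset.sum_sub_distrib, ← Finset.mul_sum, Finset.sum_const, hN] at this
        norm_num at this
        omega
      rw [hKout b x.1 hxN, h4]
      unfold resid proj77 adjInd
      by_cases h : b = x
      · subst h
        have ht : triple G v b.1 b.1 = 4 := by
          rw [triple, ← (by simpa [if_neg (Ne.symm b.2.1), if_neg b.2.2] using common77 hG v b.1 :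
            ((Finset.univ : Finset V).filter fun z => G.Adj v z ∧ G.Adj b.1 z).card = 4)]
          congr 1
          ext i
          simp
        simp [ht]
      · have hne : b.1 ≠ x.1 := fun e => h (Subtype.ext e)
        by_cases hadj : G.Adj b.1 x.1
        · have ht : triple G v b.1 x.1 = 0 := by
            have h0 := common77 hG b.1 x.1
            rw [if_neg hne, if_pos hadj, Finset.card_eq_zero] at h0
            rw [triple, Finset.card_eq_zero, Finset.filter_eq_empty_iff]
            intro i _ hi
            have : i ∈ ((Finset.univ : Finset V).filter fun z => G.Adj b.1 z ∧ G.Adj x.1 z) := by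
              simp [hi.2.1, hi.2.2]
            rw [h0] at this
            simp at this
          simp [h, hne, hadj, ht]
        · simp [h, hne, hadj]
          ring
    have hsplit : ∀ g : V → ℤ, (∀ x ∈ N, g x = 0) → g v = 0 →
        ∑ x, g x = ∑ x : Second G v, g x.1 := by
      intro g hg hgv
      rw [← Finset.sum_subtype ((Finset.univ : Finset V).filter fun x => x ≠ v ∧ ¬ G.Adj v x)
        (fun x => by simp) g]
      refine (Finset.sum_subset (Finset.subset_univ _) fun x _ hx => ?_).symm
      simp only [Finset.mem_filter, Finset.mem_univ, true_and, not_and, not_not] at hx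
      by_cases e : x = v
      · rw [e, hgv]
      · exact hg x (by simp [N, hx e])
    constructor
    · have h1 : ∑ x, K b x * K c x = 88 * ∑ z, W c z * K b z := by
        calc ∑ x, K b x * K c x
            = ∑ x, ∑ z, ∑ u, W c z * (W b u * (proj77 G u x * proj77 G x z)) := by
              refine Finset.sum_congr rfl fun x _ => ?_
              rw [mul_comm, Finset.sum_mul_sum]
              refine Finset.sum_congr rfl fun z _ => Finset.sum_congr rfl fun u _ => ?_
              rw [proj77_comm z x]
              ring
          _ = ∑ z, ∑ u, W c z * (W b u * ∑ x, proj77 G u x * proj77 G x z) := by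
              rw [Finset.sum_comm]
              refine Finset.sum_congr rfl fun z _ => ?_
              rw [Finset.sum_comm]
              refine Finset.sum_congr rfl fun u _ => ?_
              rw [Finset.mul_sum, Finset.mul_sum]
          _ = 88 * ∑ z, W c z * K b z := by
              rw [Finset.mul_sum]
              refine Finset.sum_congr rfl fun z _ => ?_
              simp only [K, Finset.mul_sum]
              refine Finset.sum_congr rfl fun u _ => ?_
              rw [← Finset.mul_sum, ← Finset.mul_sum, proj77_sq hG]
              ring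
      have h2 : ∑ z, W c z * K b z = 18 * K b c.1 := by
        rw [Finset.sum_eq_single c.1]
        · have : c.1 ∉ N := by simp [N, c.2.2]
          simp [W, this]
        · intro z _ hz
          by_cases hzN : z ∈ N
          · rw [hKN b z hzN, mul_zero]
          · simp [W, hz, hzN]
        · simp
      rw [hsplit _ (fun x hx => by rw [hKN b x hx, zero_mul]) (by rw [hKv, zero_mul]), h2, hKS] at h1
      simp only [hKS] at h1
      have h3 : ∑ x, 33 * resid G v b x * (33 * resid G v c x) =
          1089 * ∑ x, resid G v b x * resid G v c x := by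
        rw [Finset.mul_sum]
        exact Finset.sum_congr rfl fun x _ => by ring
      rw [h3] at h1
      omega
    · have h1 : ∑ x, K b x = 0 := by
        simp only [K]
        rw [Finset.sum_comm]
        refine Finset.sum_eq_zero fun z _ => ?_
        rw [← Finset.mul_sum, sum_proj77 hG, mul_zero]
      rw [hsplit _ (hKN b) (hKv b)] at h1
      simp only [hKS, ← Finset.mul_sum] at h1
      omega

/-- A 21-element coclique meets the neighbourhood of every other vertex in six points. -/
theorem coclique_tight (hG : G.IsSRGWith 77 16 0 4) {K : Finset V} (hK : K.card = 21)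
    (hind : ∀ a ∈ K, ∀ b ∈ K, ¬ G.Adj a b) {x : V} (hx : x ∉ K) :
    (K.filter fun a => G.Adj a x).card = 6 := by
  let k : V → ℤ := fun z => ∑ a ∈ K, adjInd G a z
  have h1 : ∑ z, k z = 336 := by
    simp only [k]
    rw [Finset.sum_comm, Finset.sum_congr rfl fun a _ => sum_adjInd hG a, Finset.sum_const, hK]
    norm_num
  have h2 : ∑ z, k z * k z = 2016 := by
    simp only [k, Finset.sum_mul_sum]
    rw [Finset.sum_comm]
    have : ∀ a ∈ K, ∑ z, ∑ b ∈ K, adjInd G a z * adjInd G b z = 96 := by
      intro a ha
      rw [Finset.sum_comm, ← Finset.add_sum_erase _ _ ha, sum_adjInd_mul hG, if_pos rfl,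
        Finset.sum_congr rfl (g := fun _ => (4 : ℤ)) fun b hb => by
          rw [sum_adjInd_mul hG, if_neg (Finset.ne_of_mem_erase hb).symm,
            if_neg (hind a ha b (Finset.mem_of_mem_erase hb))]; rfl,
        Finset.sum_const, Finset.card_erase_of_mem ha, hK]
      norm_num
    rw [Finset.sum_congr rfl this, Finset.sum_const, hK]
    norm_num
  have h0 : ∀ z ∈ K, k z = 0 := fun z hz =>
    Finset.sum_eq_zero fun a ha => if_neg (hind a ha z hz)
  have h3 : ∑ z ∈ Kᶜ, (k z - 6) ^ 2 = 0 := by
    have hc : ∀ g : V → ℤ, (∀ z ∈ K, g z = 0) → ∑ z ∈ Kᶜ, g z = ∑ z, g z := fun g hg =>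
      Finset.sum_subset (Finset.subset_univ _) fun z _ hz => hg z (by simpa using hz)
    have e : ∀ z, (k z - 6) ^ 2 = k z * k z - 12 * k z + 36 := fun z => by ring
    rw [Finset.sum_congr rfl fun z _ => e z, Finset.sum_add_distrib, Finset.sum_sub_distrib,
      ← Finset.mul_sum, hc k h0, hc (fun z => k z * k z) (fun z hz => by rw [h0 z hz, zero_mul]),
      h1, h2, Finset.sum_const, Finset.card_compl, hG.card, hK]
    norm_num
  have h4 := (Finset.sum_eq_zero_iff_of_nonneg fun z _ => sq_nonneg _).mp h3 x
    (Finset.mem_compl.mpr hx)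
  have h5 := pow_eq_zero_iff two_ne_zero |>.mp h4
  have h6 : k x = ((K.filter fun a => G.Adj a x).card : ℤ) := by
    rw [Finset.natCast_card_filter]; rfl
  omega

/-- The 21-element cocliques. -/
abbrev Coclique (G : SimpleGraph V) : Type _ :=
  {K : Finset V // K.card = 21 ∧ ∀ a ∈ K, ∀ b ∈ K, ¬ G.Adj a b}

/-- Through two non-adjacent vertices pass exactly two 21-element cocliques. -/
theorem card_coclique_pair (hG : G.IsSRGWith 77 16 0 4) (v : V) (w : Second G v) :
    ((Finset.univ : Finset (Coclique G)).filter fun K => v ∈ K.1 ∧ w.1 ∈ K.1).card = 2 := by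
  have hF := isFrame60_resid hG v
  rw [← hF.card_cocliques w]
  refine Finset.card_bij (fun K _ => (K.1.erase v).subtype fun x => x ≠ v ∧ ¬ G.Adj v x) ?_ ?_ ?_
  · intro K hK
    simp only [Finset.mem_filter, Finset.mem_univ, true_and] at hK
    let T : Finset (Second G v) := (K.1.erase v).subtype fun x => x ≠ v ∧ ¬ G.Adj v x
    have hmem : ∀ x : Second G v, x ∈ T ↔ x.1 ∈ K.1 := fun x => by simp [T, x.2.1]
    have hmap : T.map (Function.Embedding.subtype fun x => x ≠ v ∧ ¬ G.Adj v x) = K.1.erase v := by
      apply Finset.subtype_map_of_mem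
      intro x hx
      exact ⟨Finset.ne_of_mem_erase hx, K.2.2 v hK.1 x (Finset.mem_of_mem_erase hx)⟩
    have hT : T.card = 20 := by
      rw [← Finset.card_map (Function.Embedding.subtype fun x => x ≠ v ∧ ¬ G.Adj v x), hmap,
        Finset.card_erase_of_mem hK.1, K.2.1]
    show T ∈ _
    simp only [Finset.mem_filter, Finset.mem_powersetCard, Finset.subset_univ, true_and]
    refine ⟨hT, (hmem w).mpr hK.2, fun b hb => ?_⟩
    have hb' := (hmem b).mp hb
    have htri : ∑ x ∈ K.1.erase v, (triple G v b.1 x : ℤ) = 20 := by
      have hswap : ∀ x, (triple G v b.1 x : ℤ) =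
          ∑ i ∈ (Finset.univ : Finset V).filter (fun i => G.Adj v i ∧ G.Adj b.1 i), adjInd G x i := by
        intro x
        rw [triple, Finset.natCast_card_filter, Finset.sum_filter]
        refine Finset.sum_congr rfl fun i _ => ?_
        unfold adjInd
        by_cases h1 : G.Adj v i <;> by_cases h2 : G.Adj b.1 i <;> by_cases h3 : G.Adj x i <;>
          simp [h1, h2, h3]
      rw [Finset.sum_congr rfl fun x _ => hswap x, Finset.sum_comm]
      have h5 : ∀ i ∈ (Finset.univ : Finset V).filter (fun i => G.Adj v i ∧ G.Adj b.1 i),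
          ∑ x ∈ K.1.erase v, adjInd G x i = 5 := by
        intro i hi
        simp only [Finset.mem_filter, Finset.mem_univ, true_and] at hi
        have hiK : i ∉ K.1 := fun h => K.2.2 v hK.1 i h hi.1
        have h6 := coclique_tight hG K.2.1 K.2.2 hiK
        have h7 : ∑ x ∈ K.1, adjInd G x i = 6 := by
          unfold adjInd
          rw [Finset.sum_boole, h6]
          rfl
        rw [← Finset.add_sum_erase _ _ hK.1, show adjInd G v i = 1 from if_pos hi.1] at h7
        omega
      rw [Finset.sum_congr rfl h5, Finset.sum_const, common77 hG, if_neg (Ne.symm b.2.1),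
        if_neg b.2.2]
      norm_num
    have hr : ∀ x ∈ T, resid G v b x =
        4 - 3 * (triple G v b.1 x.1 : ℤ) + (if x = b then 12 else 0) := by
      intro x hx
      unfold resid
      by_cases e : b = x
      · subst e
        have ht : triple G v b.1 b.1 = 4 := by
          rw [triple, ← (by simpa [if_neg (Ne.symm b.2.1), if_neg b.2.2] using common77 hG v b.1 :
            ((Finset.univ : Finset V).filter fun z => G.Adj v z ∧ G.Adj b.1 z).card = 4)]
          congr 1
          ext i
          simp
        simp [ht]
      · rw [if_neg e, if_neg (K.2.2 b.1 hb' x.1 ((hmem x).mp hx)), if_neg (Ne.symm e), add_zero]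
    have hsum : ∑ x ∈ T, resid G v b x = 32 := by
      rw [Finset.sum_congr rfl hr, Finset.sum_add_distrib, Finset.sum_sub_distrib, Finset.sum_const,
        hT, ← Finset.mul_sum, Finset.sum_ite_eq', if_pos hb]
      have : ∑ x ∈ T, (triple G v b.1 x.1 : ℤ) = 20 := by
        rw [← htri, ← hmap, Finset.sum_map]
        rfl
      rw [this]
      norm_num
    intro z hz hbz
    have hA : (T.filter fun x => resid G v b x = 4).card ≤ 4 := by
      rw [← hF.card_four b]
      exact Finset.card_le_card (Finset.filter_subset_filter _ (Finset.subset_univ _))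
    have hC : 0 < (T.filter fun x => resid G v b x = -2).card :=
      Finset.card_pos.mpr ⟨z, Finset.mem_filter.mpr ⟨hz, hbz⟩⟩
    have hval : ∑ x ∈ T, (resid G v b x - 1) =
        3 * ((T.filter fun x => resid G v b x = 4).card : ℤ) -
          3 * ((T.filter fun x => resid G v b x = -2).card : ℤ) := by
      rw [Finset.natCast_card_filter, Finset.natCast_card_filter, Finset.mul_sum, Finset.mul_sum,
        ← Finset.sum_sub_distrib]
      refine Finset.sum_congr rfl fun x _ => ?_
      rcases hF.val b x with e | e | e <;> rw [e] <;> norm_num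
    rw [Finset.sum_sub_distrib, hsum, Finset.sum_const, hT] at hval
    norm_num at hval
    omega
  · intro K hK K' hK' e
    simp only [Finset.mem_filter, Finset.mem_univ, true_and] at hK hK'
    apply Subtype.ext
    ext x
    by_cases hx : x = v
    · subst hx; exact ⟨fun _ => hK'.1, fun _ => hK.1⟩
    by_cases hx' : G.Adj v x
    · exact ⟨fun h => absurd hx' (K.2.2 v hK.1 x h), fun h => absurd hx' (K'.2.2 v hK'.1 x h)⟩
    have := Finset.ext_iff.mp e ⟨x, hx, hx'⟩
    simpa [hx] using this
  · intro T hT
    simp only [Finset.mem_filter, Finset.mem_powersetCard, Finset.subset_univ, true_and] at hT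
    obtain ⟨hT, hwT, hTp⟩ := hT
    let K : Finset V := insert v (T.map (Function.Embedding.subtype fun x => x ≠ v ∧ ¬ G.Adj v x))
    have hvT : v ∉ T.map (Function.Embedding.subtype fun x => x ≠ v ∧ ¬ G.Adj v x) := by
      simp
    have hK21 : K.card = 21 := by
      rw [Finset.card_insert_of_notMem hvT, Finset.card_map, hT]
    have hKind : ∀ a ∈ K, ∀ b ∈ K, ¬ G.Adj a b := by
      intro a ha b hb
      simp only [K, Finset.mem_insert, Finset.mem_map, Function.Embedding.subtype_apply] at ha hb
      rcases ha with rfl | ⟨a, ha, rfl⟩ <;> rcases hb with rfl | ⟨b, hb, rfl⟩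
      · exact G.irrefl
      · exact b.2.2
      · exact fun h => a.2.2 h.symm
      · intro h
        refine hTp a ha b hb ?_
        unfold resid
        rw [if_neg fun e : a = b => G.irrefl (e ▸ h : G.Adj b.1 b.1), if_pos h]
    refine ⟨⟨K, hK21, hKind⟩, ?_, ?_⟩
    · simp only [Finset.mem_filter, Finset.mem_univ, true_and]
      exact ⟨Finset.mem_insert_self _ _,
        Finset.mem_insert_of_mem (Finset.mem_map.mpr ⟨w, hwT, rfl⟩)⟩
    · ext x
      simp [K, x.2.1, x.2.2]

/-- The cocliques through a vertex. -/
def pointsAt (G : SimpleGraph V) [DecidableRel G.Adj] (v : V) : Finset (Coclique G) :=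
  Finset.univ.filter fun K => v ∈ K.1

/-- The design of 21-element cocliques. -/
def cocliqueDesign (G : SimpleGraph V) [DecidableRel G.Adj] : Set (Finset (Coclique G)) :=
  Set.range (pointsAt G)

/-- Reconstruction of the design. -/
theorem reconstruct77 (hG : G.IsSRGWith 77 16 0 4) :
    Cfsg.IsSteinerSystem 3 6 (cocliqueDesign G) ∧ Fintype.card (Coclique G) = 22 ∧
      Nonempty (G ≃g Cfsg.blockGraph (cocliqueDesign G)) := by
  classical
  have hinter : ∀ v w, v ≠ w →
      (pointsAt G v ∩ pointsAt G w).card = if G.Adj v w then 0 else 2 := by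
    intro v w hvw
    rw [show pointsAt G v ∩ pointsAt G w =
      (Finset.univ : Finset (Coclique G)).filter fun K => v ∈ K.1 ∧ w ∈ K.1 from by
        simp [pointsAt, Finset.filter_and]]
    split_ifs with h
    · rw [Finset.card_eq_zero, Finset.filter_eq_empty_iff]
      exact fun K _ hK => K.2.2 v hK.1 w hK.2 h
    · exact card_coclique_pair hG v ⟨w, hvw.symm, h⟩
  have hsix : ∀ v, (pointsAt G v).card = 6 := by
    intro v
    have h1 := Finset.sum_card_bipartiteAbove_eq_sum_card_bipartiteBelow (s := pointsAt G v)
      (t := (Finset.univ : Finset V).filter fun w => w ≠ v ∧ ¬ G.Adj v w) (fun K w => w ∈ K.1)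
    simp only [Finset.bipartiteAbove, Finset.bipartiteBelow] at h1
    have hl : ∀ K ∈ pointsAt G v,
        (((Finset.univ : Finset V).filter fun w => w ≠ v ∧ ¬ G.Adj v w).filter
          fun w => w ∈ K.1).card = 20 := by
      intro K hK
      have hvK : v ∈ K.1 := (Finset.mem_filter.mp hK).2
      rw [show ((Finset.univ : Finset V).filter fun w => w ≠ v ∧ ¬ G.Adj v w).filter
          (fun w => w ∈ K.1) = K.1.erase v from ?_, Finset.card_erase_of_mem hvK, K.2.1]
      ext w
      simp only [Finset.mem_filter, Finset.mem_univ, true_and, Finset.mem_erase]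
      exact ⟨fun h => ⟨h.1.1, h.2⟩, fun h => ⟨⟨h.1, K.2.2 v hvK w h.2⟩, h.2⟩⟩
    have hr : ∀ w ∈ (Finset.univ : Finset V).filter (fun w => w ≠ v ∧ ¬ G.Adj v w),
        ((pointsAt G v).filter fun K => w ∈ K.1).card = 2 := by
      intro w hw
      rw [pointsAt, Finset.filter_filter]
      exact card_coclique_pair hG v ⟨w, (Finset.mem_filter.mp hw).2⟩
    rw [Finset.sum_congr rfl hl, Finset.sum_congr rfl hr, Finset.sum_const, Finset.sum_const,
      smul_eq_mul, smul_eq_mul, ← Fintype.card_subtype, (isFrame60_resid hG v).card] at h1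
    omega
  have hP : Fintype.card (Coclique G) = 22 := by
    have h1 := Finset.sum_card_bipartiteAbove_eq_sum_card_bipartiteBelow
      (s := (Finset.univ : Finset V)) (t := (Finset.univ : Finset (Coclique G))) (fun v K => v ∈ K.1)
    simp only [Finset.bipartiteAbove, Finset.bipartiteBelow] at h1
    have hl : ∀ K ∈ (Finset.univ : Finset (Coclique G)),
        ((Finset.univ : Finset V).filter fun v => v ∈ K.1).card = 21 := by
      intro K _
      rw [Finset.filter_univ_mem, K.2.1]
    have hl' : ∀ v ∈ (Finset.univ : Finset V),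
        ((Finset.univ : Finset (Coclique G)).filter fun K => v ∈ K.1).card = 6 := fun v _ => hsix v
    rw [Finset.sum_congr rfl hl', Finset.sum_congr rfl hl, Finset.sum_const,
      Finset.sum_const, Finset.card_univ, Finset.card_univ, hG.card, smul_eq_mul, smul_eq_mul] at h1
    omega
  have hfinj : Function.Injective (pointsAt G) := by
    intro b c h
    by_contra hne
    have := hinter b c hne
    rw [h, Finset.inter_self, hsix] at this
    split_ifs at this <;> omega
  have huniq : ∀ s : Finset (Coclique G), s.card = 3 → ∀ b c,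
      s ⊆ pointsAt G b → s ⊆ pointsAt G c → b = c := by
    intro s hs b c hb hc
    by_contra hne
    have h1 := hinter b c hne
    have h2 := Finset.card_le_card (Finset.subset_inter hb hc)
    split_ifs at h1 <;> omega
  refine ⟨⟨?_, ?_⟩, hP, ?_⟩
  · rintro _ ⟨b, rfl⟩
    exact hsix b
  · intro s hs
    have hcover : ((Finset.univ : Finset V).biUnion fun b => (pointsAt G b).powersetCard 3) =
        (Finset.univ : Finset (Coclique G)).powersetCard 3 := by
      refine Finset.eq_of_subset_of_card_le ?_ ?_
      · intro t ht
        simp only [Finset.mem_biUnion, Finset.mem_univ, true_and, Finset.mem_powersetCard] at ht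
        obtain ⟨b, -, hb⟩ := ht
        simp [hb]
      · rw [Finset.card_biUnion, Finset.sum_congr rfl fun b _ => by
          rw [Finset.card_powersetCard, hsix b]]
        · rw [Finset.card_powersetCard, Finset.card_univ, hP, Finset.sum_const, Finset.card_univ,
            hG.card]
          decide
        · intro b _ c _ hbc
          rw [Function.onFun, Finset.disjoint_left]
          intro t htb htc
          rw [Finset.mem_powersetCard] at htb htc
          exact hbc (huniq t htb.2 b c htb.1 htc.1)
    have hmem : s ∈ (Finset.univ : Finset (Coclique G)).powersetCard 3 := by simp [hs]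
    rw [← hcover, Finset.mem_biUnion] at hmem
    obtain ⟨b, -, hb⟩ := hmem
    rw [Finset.mem_powersetCard] at hb
    refine ⟨pointsAt G b, ⟨⟨b, rfl⟩, hb.1⟩, ?_⟩
    rintro _ ⟨⟨c, rfl⟩, hc⟩
    rw [huniq s hs c b hc hb.1]
  · refine ⟨⟨Equiv.ofInjective _ hfinj, ?_⟩⟩
    intro v w
    rw [Cfsg.blockGraph, SimpleGraph.fromRel_adj]
    simp only [ne_eq, Equiv.ofInjective_apply]
    constructor
    · rintro ⟨hne', h⟩
      have hne : v ≠ w := fun e => hne' (by rw [e])
      have hd : pointsAt G v ∩ pointsAt G w = ∅ :=
        Finset.disjoint_iff_inter_eq_empty.mp (h.elim id fun h => h.symm)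
      have := hinter v w hne
      rw [hd, Finset.card_empty] at this
      by_contra hna
      rw [if_neg hna] at this
      omega
    · intro h
      refine ⟨fun e => h.ne ((Equiv.ofInjective _ hfinj).injective e), Or.inl ?_⟩
      have := hinter v w h.ne
      rw [if_pos h, Finset.card_eq_zero] at this
      exact Finset.disjoint_iff_inter_eq_empty.mpr this

end Cfsg.Agent.Graphs
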